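import Cfsg.Agent.JR.B
import Cfsg.Prelude.Def_Spor_J1

/-! Interface of the Janko-Ree case (statements only; never import this file in a shipped proof).
The real theorems go in namespace `Cfsg.Agent.JR` with the same names. -/

set_option autoImplicit false
set_option linter.unusedSectionVars false

namespace Cfsg.Agent.JR.I

open Subgroup Cfsg.Agent.FT Cfsg.Agent.JR

universe u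
variable {G : Type u} [Group G] [Finite G] {p n m k : ℕ} {e : ℤ}

/-! ### piece G1 (file JR/G1.lean): general lemmas -/
theorem AG.sub (h : AG G) (H : Subgroup G) : AG H := sorry
theorem AG.quo (h : AG G) {H : Type u} [Group H] (f : G →* H) (hf : Function.Surjective f) : AG H := sorry
theorem AG.bar (h : AG G) (N H : Subgroup G) : AG (bar N H) := sorry
/-- Burnside's fusion lemma -/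
theorem FUS {r : ℕ} (hr : r.Prime) {Q X Y : Subgroup G} (hQ : Syl r Q X)
    (hc : ∀ x ∈ Q, ∀ y ∈ Q, x * y = y * x) (hY : Y ≤ Q) {g : G} (hg : g ∈ X) (h : cj g Y ≤ Q) :
    ∃ a ∈ X, a ∈ 𝐍(Q) ∧ ∀ y ∈ Y, a * y * a⁻¹ = g * y * g⁻¹ := sorry
theorem sol4 {X : Subgroup G} (h : ¬ 4 ∣ ♯X) : Group.IsSolvable X := sorry
theorem OD {X : Subgroup G} (h : ¬ 4 ∣ ♯X) {t : G} (ht : orderOf t = 2) (htX : t ∈ X) :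
    ∃ K ≤ X, Odd ♯K ∧ 𝐍(X) ≤ 𝐍(K) ∧ (∀ g ∈ X, g ∈ K ∨ g * t ∈ K) ∧
      (∀ g ∈ X, Odd (orderOf g) → g ∈ K) ∧ ∀ j ∈ X, orderOf j = 2 → ∃ a ∈ K, a * t * a⁻¹ = j := sorry
/-- Brauer's formula for a four-group -/
theorem BR {K : Subgroup G} (hK : Odd ♯K) {t w : G} (h : FG t w) (h1 : t ∈ 𝐍(K)) (h2 : w ∈ 𝐍(K)) :
    ♯K * ♯(K ⊓ 𝐂[t] ⊓ 𝐂[w] : Subgroup G) ^ 2 =
      ♯(K ⊓ 𝐂[t] : Subgroup G) * ♯(K ⊓ 𝐂[w] : Subgroup G) * ♯(K ⊓ 𝐂[t * w] : Subgroup G) := sorry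
theorem GEN {K : Subgroup G} (hK : Odd ♯K) {t w : G} (h : FG t w) (h1 : t ∈ 𝐍(K)) (h2 : w ∈ 𝐍(K)) :
    K ≤ (K ⊓ 𝐂[t]) ⊔ (K ⊓ 𝐂[w]) ⊔ (K ⊓ 𝐂[t * w]) := sorry
/-- a fixed-point-free involution inverts -/
theorem INV {K : Subgroup G} (hK : Odd ♯K) {t : G} (ht : t * t = 1) (h1 : t ∈ 𝐍(K))
    (h : K ⊓ 𝐂[t] = ⊥) : (∀ x ∈ K, t * x * t⁻¹ = x⁻¹) ∧ ∀ x ∈ K, ∀ y ∈ K, x * y = y * x := sorry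
/-- invariant Sylow subgroups -/
theorem ISY {r : ℕ} (hr : r.Prime) {A K Y : Subgroup G} (hA : A ≤ 𝐍(K)) (hc : (♯A).Coprime ♯K)
    (hs : Group.IsSolvable K) (hY : Y ≤ K) (hYp : IsPGroup r Y) (hAY : A ≤ 𝐍(Y)) :
    ∃ Q, Syl r Q K ∧ Y ≤ Q ∧ A ≤ 𝐍(Q) := sorry
/-- `p`-length one -/
theorem OP {r : ℕ} (hr : r.Prime) {X Q : Subgroup G} (hs : Group.IsSolvable X) (hQ : Syl r Q X)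
    (hc : ∀ x ∈ Q, ∀ y ∈ Q, x * y = y * x) :
    ∀ g ∈ X, ∃ a ∈ core {r}ᶜ X, ∃ b ∈ X, b ∈ 𝐍(Q) ∧ g = a * b := sorry
/-- the signalizer lemma -/
theorem SIG {r : ℕ} (hr : r.Prime) {Q A : Subgroup G} (hQ : Syl r Q ⊤)
    (hc : ∀ x ∈ Q, ∀ y ∈ Q, x * y = y * x) (hA : ∀ x, x ∈ A ↔ x ∈ Q ∧ x ^ r = 1) (h3 : r ^ 3 ≤ ♯A)
    (hs : ∀ a ∈ A, a ≠ 1 → Group.IsSolvable 𝐂[a]) :
    ∃ M : Subgroup G, ¬ r ∣ ♯M ∧ 𝐍(Q) ≤ 𝐍(M) ∧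
      ∀ a ∈ A, a ≠ 1 → ∀ g ∈ 𝐂[a], ∃ x ∈ M, ∃ b ∈ 𝐍(Q), g = x * b := sorry
/-- the axis lemma -/
theorem AX {l : ℕ} (hl : l.Prime) {V : Subgroup G} (hV : IsPGroup l V) (ho : Odd l)
    (hc : ∀ x ∈ V, ∀ y ∈ V, x * y = y * x) {t w g h : G} (hf : FG t w) (h1 : t ∈ 𝐍(V)) (h2 : w ∈ 𝐍(V))
    (h0 : V ⊓ 𝐂[t] ⊓ 𝐂[w] = ⊥) (c1 : IsCyclic (V ⊓ 𝐂[t] : Subgroup G))
    (c2 : IsCyclic (V ⊓ 𝐂[w] : Subgroup G)) (c3 : IsCyclic (V ⊓ 𝐂[t * w] : Subgroup G))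
    (hg : g ∈ 𝐍(V)) (hh : h ∈ 𝐍(V)) (hgh : g * h = h * g) (og : (orderOf g).Coprime (2 * l))
    (oh : (orderOf h).Coprime (2 * l)) (g1 : g ∈ 𝐂(V ⊓ 𝐂[t])) (g2 : t * g = g * t)
    (g3 : w * g * w⁻¹ = g⁻¹) (k1 : h ∈ 𝐂(V ⊓ 𝐂[w])) (k2 : w * h = h * w)
    (k3 : t * h * t⁻¹ = h⁻¹) : g ∈ 𝐂(V) ∨ h ∈ 𝐂(V) := sorry

/-! ### piece J0 (file JR/J0.lean): facts on `L₂(q)` -/
theorem exAr {F : Type} [Field F] [Fintype F] (h3 : 3 < Fintype.card F)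
    (h8 : Fintype.card F % 8 = 3 ∨ Fintype.card F % 8 = 5) :
    ∃ (p n m k : ℕ) (e : ℤ), Ar p n m k e ∧ Fintype.card F = p ^ n := sorry
theorem J0 {F : Type} [Field F] [Fintype F] (ha : Ar p n m k e) (hF : Fintype.card F = p ^ n) {t : G}
    {L : Subgroup G} (ht : orderOf t = 2) (hL : L ≤ 𝐂[t]) (htL : t ∉ L)
    (hC : ∀ g ∈ 𝐂[t], g ∈ L ∨ g * t ∈ L) (iso : L ≃* L2 F) : CF p n m k e t := sorry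

/-! ### piece J1 (file JR/J1.lean): sections with Klein four Sylow `2`-subgroup -/
theorem J1 (ha : AG G) (ih : IH.{u} (Nat.card G + 1))
    (hO : ∀ N : Subgroup G, N.Normal → Odd ♯N → N = ⊥) {t w : G} (h : FG t w) (h8 : ¬ 8 ∣ Nat.card G) :
    (V4 t w).Normal ∨
    (Nat.card G = 60 ∧ IsSimpleGroup G ∧ 𝐂[t] = V4 t w ∧ (∃ y ∈ 𝐍(V4 t w), y ∉ 𝐂(V4 t w)) ∧
      ∀ y : G, orderOf y = 3 → 𝐂[y] = zpowers y ∧ ∃ j : G, j * y * j⁻¹ = y⁻¹) ∨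
    ((∃ x : G, x * t = t * x ∧ x * w ≠ w * x) ∧
      ∃ P H : Subgroup G, Frob P H (P ⊔ H) ∧ 5 ≤ ♯H ∧ Group.IsSolvable ↥(P ⊔ H)) := sorry

/-! ### pieces J2a, J2b (files JR/J2a.lean, JR/J2b.lean) -/
theorem J2a {t : G} {L : Subgroup G} {F : Type} [Field F] [Fintype F] (h : Ent t L F) :
    (∀ u : G, orderOf u = 2 → IsConj t u) ∧ t ∉ L ∧
    ∃ S Φ : Subgroup G, Syl 2 S ⊤ ∧ ♯S = 8 ∧ t ∈ S ∧ (∀ x ∈ S, x * x = 1) ∧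
      (∀ x ∈ S, x ≠ 1 → ∃ g ∈ 𝐍(S), g * t * g⁻¹ = x) ∧ (𝐂(S)).relIndex 𝐍(S) = 21 ∧
      IsCyclic Φ ∧ Odd ♯Φ ∧ 𝐂(S) = S ⊔ Φ ∧ 𝐍(S) ≤ 𝐂(Φ) ∧ 𝐂[t] = zpowers t ⊔ L ⊔ Φ ∧
      (♯Φ).Coprime ♯L ∧ 12 ∣ ♯L ∧
      ∀ O ≤ 𝐂[t], Odd ♯O → 𝐂[t] ⊓ 𝐍(S) ≤ 𝐍(O) → O ≤ Φ := sorry
theorem J2b {t : G} {L : Subgroup G} {F : Type} [Field F] [Fintype F] (h : Ent t L F) :
    ∀ g ∈ 𝐂[t], g ∈ L ∨ g * t ∈ L := sorry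

/-! ### piece B: DONE, see JR/B1.lean, JR/B.lean (imported) -/

/-! ### piece G2 (file JR/G2.lean) -/
theorem TRI (h : JR G p n m k e) (h3 : ¬ 3 ∣ m) {r : ℕ} (hr : r.Prime) {Q Y0 Y : Subgroup G}
    (hQ : Syl r Q ⊤) {t w g : G} (hf : FG t w) (h1 : t ∈ 𝐍(Q)) (h2 : w ∈ 𝐍(Q)) (hY0 : Y0 ≤ Q ⊓ 𝐂[t])
    (hY : Y ≤ Q ⊓ 𝐂[w]) (hg : cj g Y0 = Y) (h4 : ¬ 4 ∣ ♯𝐂(Y)) (h8 : ¬ 8 ∣ ♯𝐍(Q)) :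
    ∃ τ s : G, orderOf τ = 3 ∧ τ ∈ 𝐍(Q) ∧ τ * t * τ⁻¹ = w ∧ τ * w * τ⁻¹ = t * w ∧
      orderOf s = 2 ∧ s * τ = τ * s := sorry
theorem CP (h : JR G p n m k e) {t : G} {P : Subgroup G} (hP : PT p (p ^ n) t P) :
    ∃ A U : Subgroup G, P ≤ U ∧ U ≤ A ∧ A ≤ 𝐂(P) ∧ (∀ x ∈ A, ∀ y ∈ A, x * y = y * x) ∧ Odd ♯A ∧
      𝐍(P) ≤ 𝐍(A) ∧ 𝐍(P) ≤ 𝐍(U) ∧ (∀ g ∈ 𝐂(P), g ∈ A ∨ g * t ∈ A) ∧ Syl p U ⊤ ∧ U ⊓ 𝐂[t] = P ∧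
      ∀ g ∈ 𝐍(P), ∃ a ∈ A, ∃ c ∈ 𝐍(P), c ∈ 𝐂[t] ∧ g = a * c := sorry
theorem PE (h : JR G p n m k 1) (h3 : ¬ 3 ∣ m) {t u : G} {P U : Subgroup G} (hP : PT p (p ^ n) t P)
    (hf : FG t u) (hu : u ∈ 𝐍(P)) (hU : Syl p U ⊤) (h1 : P ≤ U) (h2 : 𝐍(P) ≤ 𝐍(U)) :
    U = P ∨ ∃ τ s : G, orderOf τ = 3 ∧ τ ∈ 𝐍(U) ∧ τ * t * τ⁻¹ = u ∧ τ * u * τ⁻¹ = t * u ∧
      orderOf s = 2 ∧ s * τ = τ * s := sorry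

/-! ### pieces J3a, J3b, J3c -/
theorem J3a (h : JR G p n m k e) {t u x : G} (hf : FG t u) (hx : x ∈ Rw t u) (h1 : x ≠ 1) :
    𝐂[x] ≤ 𝐍(V4 t u) ∨ (♯𝐂[x] = 60 * m ∧ 𝐂[x] ≤ 𝐂(Rw t u) ∧ (∃ y ∈ 𝐂[x], y ∈ 𝐍(V4 t u) ∧ y ∉ 𝐂(V4 t u)) ∧
      ∀ y ∈ 𝐂[x], orderOf y = 3 → y ∉ Rw t u →
        𝐂[x] ⊓ 𝐂[y] ≤ Rw t u ⊔ zpowers y ∧ ∃ j ∈ 𝐂[x], j * y * j⁻¹ * y ∈ Rw t u) := sorry
theorem J3b (h : JR G p n m k e) : ¬ 3 ∣ m := sorry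
theorem J3c (h : JR G p n m k e) : CX G := sorry

/-! ### pieces J5a, J5b, J5c -/
theorem J5a (h : JR G p n m k e) (h3 : ¬ 3 ∣ m) (hx : CX G) (hT : ¬ TTI G k) :
    ∃ r : ℕ, r.Prime ∧ r ∣ k ∧ Bad G k r := sorry
theorem J5b (h : JR G p n m k e) (h3 : ¬ 3 ∣ m) {r : ℕ} (hr : r.Prime) (hk : r ∣ k) (hb : Bad G k r) :
    r ≠ 3 ∧ (∀ l : ℕ, l.Prime → l ∣ k → Bad G k l) ∧
    (∀ (t w : G) (T : Subgroup G), TT k t w T → ∀ y ∈ T, orderOf y = r → ♯𝐂[y] ∣ 2 * k ^ 3) ∧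
    (∀ U : Subgroup G, U ≠ ⊥ → IsPGroup r U → ♯𝐍(U) ∣ 60 * k ^ 3) ∧
    ∃ τ y s : G, orderOf τ = 3 ∧ orderOf y = r ∧ τ * y = y * τ ∧ orderOf s = 2 ∧ s * τ = τ * s := sorry
theorem J5c (h : JR G 3 n m k e) (h3 : ¬ 3 ∣ m)
    (hT : ∀ (t w : G) (T : Subgroup G), TT k t w T → ∀ y ∈ T, y ≠ 1 → ¬ 3 ∣ ♯𝐂[y]) {r : ℕ} (hr : r.Prime)
    (hk : r ∣ k) (hU : ∀ U : Subgroup G, U ≠ ⊥ → IsPGroup r U → ¬ 9 ∣ ♯𝐍(U)) {τ y s : G}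
    (h1 : orderOf τ = 3) (h2 : orderOf y = r) (h4 : τ * y = y * τ) (h5 : orderOf s = 2)
    (h6 : s * τ = τ * s) : False := sorry

/-! ### piece J6 -/
theorem J6a (h : JR G p n m k 1) (h3 : ¬ 3 ∣ m) (hT : TTI G k) : ¬ p * p ^ n ∣ Nat.card G := sorry
theorem J6b (h : JR G p n m k (-1)) (h3 : ¬ 3 ∣ m) (hT : TTI G k) : p = 3 := sorry
theorem J6c (h : JR G 3 n m k (-1)) (hT : TTI G k) :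
    ∃ (t w : G) (T U Y : Subgroup G), TT k t w T ∧ Syl 3 U ⊤ ∧ (∀ x ∈ U, ∀ y ∈ U, x * y = y * x) ∧
      T ≤ 𝐍(U) ∧ t ∈ 𝐍(U) ∧ Y ≤ U ∧ T ≤ 𝐍(Y) ∧ t ∈ 𝐍(Y) ∧ ♯U = 3 ^ n * ♯Y ∧
      (∀ a ∈ zpowers t ⊔ T, a ≠ 1 → Y ⊓ 𝐂[a] = ⊥) ∧ ♯(zpowers t ⊔ T : Subgroup G) = 2 * k ∧
      ♯(𝐍(U) ⊓ 𝐂[t] : Subgroup G) = 3 ^ n * (2 * k) ∧
      (Y ≠ ⊥ → ∀ g : G, U ⊓ cj g U ≠ ⊥ → g ∈ 𝐍(U)) := sorry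
theorem J6d (h : JR G p n m k e) (h3 : ¬ 3 ∣ m) (hx : CX G) :
    (∃ g' : ℕ, Nat.card G = 8 * m * g' ∧ g'.Coprime (2 * m)) ∧
    ∃ N : ℕ, Nat.card G = 8 * p ^ n * m * k * N ∧ ∀ r : ℕ, r.Prime → r ∣ m → N ≡ 3 [MOD r] := sorry

/-! ### piece J7: characters -/
theorem J7 (h : JR G p n m k e) (h5 : 5 ≤ k) (hT : TTI G k) :
    ∃ A : ℤ, (Nat.card G : ℤ) * (A + e * (p ^ n : ℕ)) ^ 2 =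
        ((8 * p ^ n * m * k : ℕ) : ℤ) ^ 2 * (2 * k) * A * (1 + A) ∧
      2 * k * A ∣ (Nat.card G : ℤ) ∧ (2 * k : ℤ) ∣ A - 1 := sorry

/-! ### piece J8: arithmetic -/
theorem J8 (ha : Ar p n m k e) {g g' : ℕ} (h1 : g = 8 * m * g') (h2 : g'.Coprime (2 * m)) {A : ℤ}
    (h3 : (g : ℤ) * (A + e * (p ^ n : ℕ)) ^ 2 = ((8 * p ^ n * m * k : ℕ) : ℤ) ^ 2 * (2 * k) * A * (1 + A))
    (h4 : 2 * k * A ∣ (g : ℤ)) (h5 : (2 * k : ℤ) ∣ A - 1) :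
    ∃ f : ℤ, f ∣ (p ^ n : ℕ) ∧ OF g (p ^ n) e f := sorry
theorem J8a (ha : Ar p n m k 1) (hm : 1 < m) {g N : ℕ} {f : ℤ} (h1 : f ∣ (p ^ n : ℕ)) (h2 : OF g (p ^ n) 1 f)
    (h3 : ¬ p * p ^ n ∣ g) (h4 : g = 8 * p ^ n * m * k * N)
    (h5 : ∀ r : ℕ, r.Prime → r ∣ m → N ≡ 3 [MOD r]) : False := sorry
theorem J8b (ha : Ar 3 n m k (-1)) (hm : 1 < m) {g N y g' : ℕ} {f : ℤ} (h1 : f ∣ (3 ^ n : ℕ))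
    (h2 : OF g (3 ^ n) (-1) f) (h4 : g = 8 * 3 ^ n * m * k * N)
    (h5 : ∀ r : ℕ, r.Prime → r ∣ m → N ≡ 3 [MOD r]) (h6 : g = 3 ^ n * y * g') (h7 : ¬ 3 ∣ g')
    (h8 : ∃ a, y = 3 ^ a) (h9 : y = 1 ∨ 3 ^ n ≤ y) :
    (y = 3 ^ n ∧ (g : ℤ) = ((3 : ℤ) ^ n) ^ 2 * ((3 ^ n) ^ 2 - 1) * ((3 ^ n) ^ 2 - 3 ^ n - 1) * (3 ^ n - 2)) ∨
    (y = (3 ^ n) ^ 2 ∧ (g : ℤ) = ((3 : ℤ) ^ n) ^ 3 * (3 ^ n - 1) * ((3 ^ n) ^ 3 + 1)) := sorry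

/-! ### pieces J9b, J9c -/
theorem J9c [IsSimpleGroup G] {U Y H : Subgroup G} (hc : ∀ x ∈ U, ∀ y ∈ U, x * y = y * x)
    (hti : ∀ g : G, U ⊓ cj g U ≠ ⊥ → g ∈ 𝐍(U)) (hi : (𝐍(U)).index = ♯U + 1) (hH : H ≤ 𝐍(U))
    (hN : ♯𝐍(U) = ♯U * ♯H) (hco : (♯U).Coprime ♯H) (h2 : 2 ∣ ♯H) (h4 : ¬ 4 ∣ ♯H)
    (hb : (♯H + 1) ^ 2 < ♯U) (hY : Y ≤ U) (hY0 : Y ≠ ⊥) (hHY : H ≤ 𝐍(Y))
    (hf : ∀ a ∈ H, a ≠ 1 → Y ⊓ 𝐂[a] = ⊥) : False := sorry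
theorem J9b (h : JR G 3 n m k (-1)) (h3 : ¬ 3 ∣ m) (hx : CX G) (hT : TTI G k) {f : ℤ}
    (h1 : f ∣ (3 ^ n : ℕ)) (h2 : OF (Nat.card G) (3 ^ n) (-1) f) : False := sorry

/-! ### piece Main (file JR/Main.lean) -/
theorem JR.false (h : JR G p n m k e) : False := sorry
theorem main {t : G} {L : Subgroup G} {F : Type} [Field F] [Fintype F] (h : Ent t L F) :
    Nonempty (centralizer ({t} : Set G) ≃* Z2A5) := sorry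

/-! ### piece ISO (file JR/Iso.lean) -/
theorem iso_A5 {F : Type} [Field F] [Fintype F] (h : Fintype.card F = 5) :
    Nonempty (L2 F ≃* alternatingGroup (Fin 5)) := sorry
theorem isoJ1 {G : Type*} [Group G] [Finite G] [IsSimpleGroup G]
    (hA : ∀ (p : ℕ), p.Prime → ∀ (P : Sylow p G), IsMulCommutative ↥P) {t : G} (ht : orderOf t = 2)
    (e : centralizer ({t} : Set G) ≃* Z2A5) : Cfsg.Spor.IsoJ1 G := sorry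

end Cfsg.Agent.JR.I
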